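import Cfsg.Agent.H8.Few1

/-! There is no simple group of order `459648`. -/

set_option autoImplicit false
set_option linter.unusedVariables false
set_option linter.style.haveILetI false

namespace H8

theorem n459648_num1 : ∀ n ∈ Nat.divisors 24192, n % 19 = 1 → n = 1 ∨ n = 96 ∨ n = 1008 := by
  decide +kernel

theorem n459648_num2 : ∀ d ∈ Nat.divisors 24192, 38 < d → d * d ≤ 459648 →
    (d % 19 = 1 → d = 96) ∧ (d % 19 = 18 → d = 56 ∨ d = 189) := by decide +kernel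

theorem n459648_num3 : ∀ e < (7 : ℕ), e ∣ 18 → ∀ r < 6, ∀ s < 6, ∀ t < 6, r + s + t = (e - 1 : ℕ) →
    ∀ z : ℤ, z = -(1 + ((r : ℕ) * 96 + (s : ℕ) * -56 + (t : ℕ) * -189)) → z.natAbs ∣ 1008 * e →
      38 < z.natAbs → 19 ∣ z + e → e = 6 ∧ s ≠ 0 ∧ z = 108 := by
  rintro e h1 h2 r h3 s h4 t h5 h6 z rfl
  interval_cases e <;> interval_cases r <;> interval_cases s <;> interval_cases t <;>
    first | omega | decide

theorem n459648_num4 {r s j r' s' : ℕ} (h1 : r + s = 56) (h2 : s = j + j) (h3 : s ≠ 0)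
    (h4 : r + s = 19 * (r' + s') + (19 - 1)) (h5 : (r : ℤ) - s = 19 * (r' - s') + (19 - 1 : ℕ)) :
    (r : ℤ) - s = -20 := by
  have : s' ≤ 2 := by omega
  interval_cases s' <;> omega

theorem n459648_num5 {r s j r' s' : ℕ} (h1 : r + s = 108) (h2 : s = j + j) (h3 : s ≠ 0)
    (h4 : r + s = 19 * (r' + s') + (19 - 6)) (h5 : (r : ℤ) - s = 19 * (r' - s') + (19 - 6 : ℕ))
    (h6 : ((108 : ℕ) : ℤ) ∣ (1008 : ℕ) * ((r : ℤ) - s)) : False := by
  rw [h5] at h6
  obtain rfl : r' = 5 - s' := by clear h6; omega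
  have : s' ≤ 5 := by clear h6; omega
  interval_cases s' <;> first | exact absurd h6 (by decide) | (clear h6; omega)

open Subgroup Cfsg
open scoped ComplexConjugate Classical

universe u

theorem exists_counts3 {ι : Type*} (S : Finset ι) (F : ι → ℤ) (u v w : ℤ)
    (h : ∀ i ∈ S, F i = u ∨ F i = v ∨ F i = w) : ∃ a b c : ℕ, a + b + c = S.card ∧
      ∑ i ∈ S, F i = a * u + b * v + c * w ∧ (b ≠ 0 → ∃ i ∈ S, F i = v) ∧
        (c ≠ 0 → ∃ i ∈ S, F i = w) := by
  induction S using Finset.induction_on with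
  | empty => exact ⟨0, 0, 0, by simp⟩
  | insert i S hi ih =>
    obtain ⟨a, b, c, h1, h2, h3, h4⟩ := ih fun j hj => h j (Finset.mem_insert_of_mem hj)
    have k : ∀ {z}, (∃ i ∈ S, F i = z) → ∃ j ∈ insert i S, F j = z :=
      fun ⟨j, a, b⟩ => ⟨j, Finset.mem_insert_of_mem a, b⟩
    rw [Finset.card_insert_of_notMem hi, Finset.sum_insert hi, h2]
    rcases h i (Finset.mem_insert_self i S) with e | e | e
    · exact ⟨a + 1, b, c, by omega, by rw [e]; push_cast; ring, fun d => k (h3 d), fun d => k (h4 d)⟩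
    · exact ⟨a, b + 1, c, by omega, by rw [e]; push_cast; ring,
        fun _ => ⟨i, Finset.mem_insert_self i S, e⟩, fun d => k (h4 d)⟩
    · exact ⟨a, b, c + 1, by omega, by rw [e]; push_cast; ring, fun d => k (h3 d),
        fun _ => ⟨i, Finset.mem_insert_self i S, e⟩⟩

theorem deg_mul_self_le {G : Type u} [Group G] [Fintype G] (χ : IrrCharacter G) :
    deg χ * deg χ ≤ Nat.card G := by
  have := sum_irr_degree_sq (G := G)
  simp only [deg_eq] at this
  rw [← show ∑ χ : IrrCharacter G, deg χ * deg χ = Nat.card G by exact_mod_cast this]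
  exact Finset.single_le_sum (f := fun χ => deg χ * deg χ) (fun _ _ => Nat.zero_le _)
    (Finset.mem_univ χ)

theorem block_459648 {G : Type u} [Group G] [Fintype G] [IsSimpleGroup G] [Fact (Nat.Prime 19)]
    (hG : ¬ IsMulCommutative G) (hN : Nat.card G = 459648) {x : G} {h : DefOne 19 x}
    (b : h.Block) : (Nx x).index = 1008 ∧ Nat.card h.H = 6 ∧ Nat.card h.V = 4 ∧ b.sgn0 = 1 ∧
      deg (b.ex 1) = 108 ∧ ∃ χ ∈ b.B, χ ≠ ⟨1, irr_one⟩ ∧ b.sgn χ = -1 ∧ deg χ = 56 := by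
  have hG' := commutator_eq_top_of_simple hG
  have a1 := h.card_eq
  have a2 : (Nx x).index * Nat.card h.H * Nat.card h.V = 24192 := 
    Nat.eq_of_mul_eq_mul_left (by norm_num : 0 < 19) (by rw [show 19 * 24192 = 459648 from rfl, ← hN, a1]; ring)
  have a3 : (Nx x).index = 96 ∨ (Nx x).index = 1008 := by
    refine (n459648_num1 _ (Nat.mem_divisors.mpr ⟨⟨_, by rw [← a2, mul_assoc]⟩, by norm_num⟩)
      ?_).resolve_left ?_
    · rw [← h.card_sylow]; exact card_sylow_modEq_one 19 G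
    · rw [← h.card_sylow]; exact card_sylow_ne_one hG h.dvd_card
  have a4 := h.one_lt_card_H hG'
  have a5 : Nat.card h.H ∣ 18 := h.card_H_dvd
  have a6 := Nat.le_of_dvd (by norm_num) a5
  have hV : h.V ≠ ⊥ := fun e => by
    rw [e, card_bot, mul_one] at a2
    rcases a3 with c | c <;> rw [c] at a2 <;> omega
  have a7 : ∀ χ ∈ b.B.erase ⟨1, irr_one⟩,
      b.sgn χ * deg χ = 96 ∨ b.sgn χ * deg χ = -56 ∨ b.sgn χ * deg χ = -189 := fun χ hχ => by
    obtain ⟨c1, c2⟩ := Finset.mem_erase.mp hχ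
    have := n459648_num2 (deg χ) (Nat.mem_divisors.mpr ⟨(b.deg_dvd c2).trans
      ⟨_, by rw [h.index_Cx, a2]⟩, by norm_num⟩)
      (not_le.mp fun c => hV (b.V_eq_bot_of_deg_le hG c2 c1 c)) (hN ▸ deg_mul_self_le χ)
    obtain ⟨n, hn⟩ := b.deg_modEq c2
    rcases b.sgn_eq χ c2 with e | e <;> rw [e] at hn ⊢ <;> omega
  obtain ⟨r, s, t, c1, c2, c3, c4⟩ := exists_counts3 _ _ _ _ _ a7
  have c5 := b.sum_deg 1
  rw [← Finset.add_sum_erase _ _ b.one_mem, c2, b.sgn_one, deg_one] at c5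
  rw [Finset.card_erase_of_mem b.one_mem, b.card_B] at c1
  have c6 := b.deg_ex_dvd 1
  have c7 : 38 < deg (b.ex 1) := not_le.mp fun c => hV (b.V_eq_bot_of_deg_ex_le hG 1 c)
  obtain ⟨n, hn⟩ := b.deg_ex_modEq 1
  rw [h.index_Cx] at c6
  have c8 : ∀ z : ℤ, z < 0 → (∃ χ ∈ b.B.erase ⟨1, irr_one⟩, b.sgn χ * deg χ = z) →
      ∃ χ ∈ b.B, χ ≠ ⟨1, irr_one⟩ ∧ b.sgn χ = -1 ∧ deg χ = z.natAbs := fun z hz ⟨χ, d1, d2⟩ => by
    obtain ⟨d3, d4⟩ := Finset.mem_erase.mp d1
    refine ⟨χ, d4, d3, ?_⟩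
    rcases b.sgn_eq χ d4 with e | e <;> rw [e] at d2 <;> omega
  rcases a3 with a3 | a3
  · have k : ∀ z : ℤ, z < 0 → 7 ∣ z.natAbs →
        ¬ ∃ χ ∈ b.B.erase ⟨1, irr_one⟩, b.sgn χ * deg χ = z := fun z d1 d2 d3 => by
      obtain ⟨χ, d4, -, -, d5⟩ := c8 z d1 d3
      have := (d5 ▸ d2).trans (b.deg_dvd d4)
      rw [h.index_Cx, a3] at this
      exact absurd (this.trans (mul_dvd_mul_left 96 a5)) (by norm_num)
    obtain rfl : s = 0 := by_contra fun c => k _ (by norm_num) (by norm_num) (c3 c)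
    obtain rfl : t = 0 := by_contra fun c => k _ (by norm_num) (by norm_num) (c4 c)
    clear k c3 c4 c8
    have d1 : deg (b.ex 1) = 2 * (48 * r) + 1 := by
      rcases b.sgn0_eq with e | e <;> rw [e] at c5 <;> omega
    have := Nat.le_of_dvd (by norm_num) ((show (deg (b.ex 1)).Coprime (2 ^ 6) from
      (Nat.coprime_two_right.mpr ⟨_, d1⟩).pow_right 6).dvd_of_dvd_mul_left
        (show _ ∣ 2 ^ 6 * 27 from c6.trans (a3 ▸ mul_dvd_mul_left 96 a5)))
    omega
  replace c3 := fun c => c8 _ (by norm_num) (c3 c)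
  suffices Nat.card h.H = 6 ∧ Nat.card h.V = 4 ∧ b.sgn0 = 1 ∧ deg (b.ex 1) = 108 ∧ s ≠ 0 from
    ⟨a3, this.1, this.2.1, this.2.2.1, this.2.2.2.1, c3 this.2.2.2.2⟩
  clear c3 c4 c8 a7
  rw [a3] at a2 c6
  have d0 : Nat.card h.H ∣ 24 := ⟨Nat.card h.V, by rw [mul_assoc] at a2; omega⟩
  have d1 : Nat.card h.H ≤ 6 := Nat.le_of_dvd (by norm_num) (Nat.dvd_gcd a5 d0)
  obtain ⟨d2, d3, d4⟩ := n459648_num3 _ (by omega) a5 r (by omega) s (by omega) t (by omega) c1
    (b.sgn0 * deg (b.ex 1)) (by omega)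
    (by rcases b.sgn0_eq with e | e <;> simpa [e] using c6)
    (by rcases b.sgn0_eq with e | e <;> simpa [e] using c7)
    (by rcases b.sgn0_eq with e | e <;> rw [e] at hn ⊢ <;> omega)
  obtain ⟨d5, d6⟩ : b.sgn0 = 1 ∧ deg (b.ex 1) = 108 := by
    rcases b.sgn0_eq with e | e <;> rw [e] at d4 <;> omega
  exact ⟨d2, by rw [d2] at a2; omega, d5, d6, d3⟩

theorem card_ne_459648 {G : Type u} [Group G] [Finite G] [IsSimpleGroup G] :
    Nat.card G ≠ 459648 := by
  intro hN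
  haveI := Fintype.ofFinite G
  have hG := not_comm_of_card_eq hN (a := 19) (b := 24192) rfl (by norm_num) (by norm_num)
  have hG' := commutator_eq_top_of_simple hG
  haveI : Fact (Nat.Prime 19) := ⟨by norm_num⟩
  obtain ⟨x, h⟩ := exists_defOne (p := 19) (m := 24192) hN (by norm_num)
  obtain ⟨b⟩ := h.nonempty_block
  obtain ⟨a3, d2, d7, d5, d6, χ, i1, i2, i3, i4⟩ := block_459648 hG hN b
  have inv : ∀ (χ : IrrCharacter G) (β : h.V → ℂ) (m : ℕ), χ ≠ ⟨1, irr_one⟩ → IsCharacter h.V β →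
      (∀ v : h.V, χ.1 v = (19 : ℕ) * β v + m) → ∀ v : h.V, v ≠ 1 → v ^ 2 = 1 →
      ∃ r s r' s' : ℕ, χ.1 v = ((r : ℤ) - s : ℤ) ∧ r + s = deg χ ∧ Even s ∧ s ≠ 0 ∧
        r + s = 19 * (r' + s') + m ∧ (r : ℤ) - s = 19 * (r' - s') + m := by
    intro χ β m i1 i2 i3 v i4 i5
    obtain ⟨r, s, j1, j2, j3⟩ := char_involution (irr_isCharacter χ.2) (z := v)
      (congrArg Subtype.val i5)
    obtain ⟨r', s', j4, j5, -⟩ := char_involution i2 i5
    have j6 := i3 1
    have j7 := i3 v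
    rw [coe_one, j1, j4] at j6
    rw [j2, j5] at j7
    refine ⟨r, s, r', s', by rw [j2]; simp, by rw [deg_eq] at j1; exact_mod_cast j1.symm, j3 hG',
      fun e => i4 (Subtype.ext (irr_faithful_of_simple χ.2 (fun c => i1 (Subtype.ext c))
        (by rw [j1, j2, e]; simp))), by exact_mod_cast j6, by exact_mod_cast j7⟩
  by_cases hu : ∀ v : h.V, v ^ 2 = 1
  · obtain ⟨β, i5, i6⟩ := b.exists_restrict_B i1
    rw [if_neg (by omega)] at i6
    obtain ⟨m, hm⟩ := char_classInner_nat (char_restrict (irr_isCharacter χ.2) h.V) char_one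
    rw [classInner, ← Finset.add_sum_erase _ _ (Finset.mem_univ 1), Finset.sum_congr rfl
      (g := fun _ => -20) fun v hv => by
        obtain ⟨r, s, r', s', j1, j2, ⟨j, j3⟩, j4, j5, j6⟩ :=
          inv χ β _ i2 i5 i6 v (Finset.ne_of_mem_erase hv) (hu v)
        rw [n459648_num4 (j2.trans i4) j3 j4 j5 j6] at j1
        simp [j1], Finset.sum_const, Finset.card_erase_of_mem (Finset.mem_univ _),
      Finset.card_univ, ← Nat.card_eq_fintype_card, d7] at hm
    simp only [coe_one, deg_eq, i4] at hm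
    norm_num at hm
    exact absurd (show (-1 : ℤ) = m by exact_mod_cast hm) (by omega)
  obtain ⟨u, hu⟩ := not_forall.mp hu
  have e1 : u ^ 4 = 1 := d7 ▸ pow_card_eq_one'
  have e2 : orderOf u = 4 := orderOf_eq_prime_pow (p := 2) (n := 1) hu e1
  have e3 : ∀ w : h.V, w ^ 2 ≠ 1 → w ^ 2 = u ^ 2 := fun w hw => by
    obtain ⟨k, i1, rfl⟩ := Finset.mem_image.mp (mem_zpowers_iff_mem_range_orderOf.mp
      ((eq_top_of_card_eq (zpowers u) (by rw [Nat.card_zpowers, e2, d7])).ge (mem_top w)))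
    rw [e2, Finset.mem_range] at i1
    interval_cases k
    · simp at hw
    · simp
    · exact absurd (by rw [← pow_mul, e1]) hw
    · rw [← pow_mul, show 3 * 2 = 4 + 2 by rfl, pow_add, e1, one_mul]
  have e4 : Nx x ≤ Cx ((u ^ 2 : h.V) : G) := fun y hy => by
    have := congrArg Subtype.val (e3 ⟨_, h.conj_mem_V hy u.2⟩ fun c => hu (Subtype.ext (by
      simpa [conj_pow] using congrArg Subtype.val c)))
    rw [mem_Cx, ← mul_inv_eq_iff_eq_mul]
    simpa [conj_pow] using this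
  obtain ⟨β, i5, i6⟩ := b.exists_restrict_ex 1
  rw [if_pos d5, d2] at i6
  obtain ⟨r, s, r', s', j1, j2, ⟨j, j3⟩, j4, j5, j6⟩ :=
    inv _ β _ (b.ex_ne_one 1) i5 i6 (u ^ 2) hu (by rw [← pow_mul, e1])
  have := (irr_deg_dvd_index_mul _ j1).trans (mul_dvd_mul_right
    (Int.natCast_dvd_natCast.mpr (index_dvd_of_le e4)) _)
  rw [a3, d6] at this
  exact n459648_num5 (j2.trans d6) j3 j4 j5 j6 this

end H8
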