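import Cfsg.Agent.H8.TC
import Cfsg.Agent.H8.Simple
import Cfsg.Agent.H8.Char4
import Cfsg.Agent.H7.PBasic
import Cfsg.Agent.H2.Chain

/-! Permutations given by packed tables, orbit certificates, a simplicity criterion. -/

set_option autoImplicit false

namespace H8.PT

open H8.TC

def ap (T i : ℕ) : ℕ := Nat.land (Nat.shiftRight T (Nat.mul (nat_lit 12) i)) (nat_lit 4095)

noncomputable def allLt (n : ℕ) (f : ℕ → Bool) : Bool :=
  Nat.rec true (fun i acc => acc && Nat.rec true (fun j acc' => acc' &&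
    force (Nat.add (Nat.mul (nat_lit 64) i) j) fun p => Nat.ble n p || f p) 64) (n / 64 + 1)

theorem allLt_spec {n : ℕ} {f : ℕ → Bool} (h : allLt n f = true) : ∀ p < n, f p = true := by
  intro p hp
  have a0 := natRec_all (f := fun i => (Nat.rec (motive := fun _ => Bool) true
    (fun j acc' => acc' && force (Nat.add (Nat.mul (nat_lit 64) i) j) fun p =>
      Nat.ble n p || f p) 64)) (N := n / 64 + 1) h (p / 64) (by omega)
  have a1 := natRec_all (f := fun j => force (Nat.add (Nat.mul (nat_lit 64) (p / 64)) j) fun p =>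
      Nat.ble n p || f p) (N := 64) a0 (p % 64) (Nat.mod_lt _ (by norm_num))
  have e : Nat.add (Nat.mul (nat_lit 64) (p / 64)) (p % 64) = p := Nat.div_add_mod p 64
  rw [force_eq, e, Bool.or_eq_true, Nat.ble_eq] at a1
  exact a1.resolve_left (by omega)

noncomputable def chk (N T U : ℕ) : Bool := allLt N fun i => force (ap T i) fun a =>
  force (ap U i) fun b => Nat.blt a N && Nat.blt b N && Nat.beq (ap U a) i && Nat.beq (ap T b) i

theorem chk_spec {N T U : ℕ} (h : chk N T U = true) {i : ℕ} (hi : i < N) :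
    ap T i < N ∧ ap U i < N ∧ ap U (ap T i) = i ∧ ap T (ap U i) = i := by
  have := allLt_spec h i hi
  simpa only [force_eq, Bool.and_eq_true, Nat.blt_eq, Nat.beq_eq, and_assoc] using this

/-- the permutation with table `T` and inverse table `U` -/
def pm (N T U : ℕ) (h : chk N T U = true) : Equiv.Perm (Fin N) where
  toFun i := ⟨ap T i, (chk_spec h i.2).1⟩
  invFun i := ⟨ap U i, (chk_spec h i.2).2.1⟩
  left_inv i := Fin.ext (chk_spec h i.2).2.2.1
  right_inv i := Fin.ext (chk_spec h i.2).2.2.2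

/-- image of a point under a word -/
noncomputable def apW (T : ℕ → ℕ) (w : List ℕ) (i : ℕ) : ℕ :=
  List.rec i (fun l _ x => force x (ap (T l))) w

variable {N : ℕ} {g : ℕ → Equiv.Perm (Fin N)} {T : ℕ → ℕ} {m : ℕ}

/-- the element of a word -/
def wd {Γ : Type*} [Group Γ] (g : ℕ → Γ) (w : List ℕ) : Γ := (w.map fun a => g (a % 16)).prod

theorem wd_apply (h : ∀ l < m, ∀ i, (g l i : ℕ) = ap (T l) i) (hm : m ≤ 16) {w : List ℕ}
    (hw : ∀ l ∈ w, l < m) (i : Fin N) : (wd g w i : ℕ) = apW T w i := by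
  induction w with
  | nil => rfl
  | cons a w ih =>
    have ha := hw a (List.mem_cons_self ..)
    have : wd g (a :: w) = g a * wd g w := by
      rw [wd, List.map_cons, List.prod_cons, Nat.mod_eq_of_lt (by omega : a < 16)]; rfl
    rw [this, Equiv.Perm.mul_apply, h a ha, ih fun l hl => hw l (List.mem_cons_of_mem _ hl)]
    rfl

noncomputable def chkRel (N m : ℕ) (T : ℕ → ℕ) (R : List (List ℕ)) : Bool :=
  R.all fun w => w.all (fun l => Nat.blt l m) && allLt N fun i => Nat.beq (apW T w i) i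

theorem chkRel_spec (h : ∀ l < m, ∀ i, (g l i : ℕ) = ap (T l) i) (hm : m ≤ 16)
    {R : List (List ℕ)} (e : chkRel N m T R = true) : ∀ w ∈ R, wd g w = 1 := by
  intro w hw
  simp only [chkRel, List.all_eq_true, Bool.and_eq_true, Nat.blt_eq] at e
  obtain ⟨e1, e2⟩ := e w hw
  ext i
  rw [wd_apply h hm e1]
  exact Nat.eq_of_beq_eq_true (allLt_spec e2 i i.2)

/-- one step of an orbit certificate -/
noncomputable def ostep (T : ℕ → ℕ) (W : List (List ℕ)) (c M : ℕ) : ℕ :=
  force (c / 16) fun p => cond (M.testBit p)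
    (force (apW T (W.getD (c % 16) []) p) fun q => M ||| 2 ^ q) M

noncomputable def ochunk (T : ℕ → ℕ) (W : List (List ℕ)) (c M : ℕ) : ℕ :=
  Nat.rec M (fun j acc => force acc fun a => ostep T W ((c >>> (16 * j)) % 65536) a) 32

noncomputable def orb (T : ℕ → ℕ) (W : List (List ℕ)) (L : List ℕ) : ℕ → ℕ :=
  List.rec (fun M => M) (fun c _ ih M => force (ochunk T W c M) ih) L

def OrbIn (K : Subgroup (Equiv.Perm (Fin N))) (p : Fin N) (M : ℕ) : Prop :=
  ∀ i, M.testBit i = true → ∃ k ∈ K, (k p : ℕ) = i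

variable {K H : Subgroup (Equiv.Perm (Fin N))} {p : Fin N} {W : List (List ℕ)}

theorem orbIn_start : OrbIn K p (2 ^ (p : ℕ)) := fun i hi => by
  rw [Nat.testBit_two_pow, decide_eq_true_eq] at hi
  exact ⟨1, K.one_mem, hi⟩

theorem OrbIn.ostep (h : ∀ l < m, ∀ i, (g l i : ℕ) = ap (T l) i) (hm : m ≤ 16)
    (hW : ∀ w ∈ W, (∀ l ∈ w, l < m) ∧ wd g w ∈ K) {M : ℕ} (hM : OrbIn K p M) (c : ℕ) :
    OrbIn K p (ostep T W c M) := by
  rw [PT.ostep, force_eq]
  cases e : M.testBit (c / 16)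
  · exact hM
  rw [cond_true, force_eq]
  intro i hi
  rw [Nat.testBit_or, Bool.or_eq_true, Nat.testBit_two_pow, decide_eq_true_eq] at hi
  rcases hi with hi | hi
  · exact hM i hi
  obtain ⟨k, hk, e1⟩ := hM _ e
  have : (∀ l ∈ W.getD (c % 16) [], l < m) ∧ wd g (W.getD (c % 16) []) ∈ K := by
    rw [List.getD_eq_getElem?_getD]
    cases e : W[c % 16]? with
    | none => exact ⟨by simp, K.one_mem⟩
    | some w => exact hW w (List.mem_of_getElem? e)
  refine ⟨_ * k, K.mul_mem this.2 hk, ?_⟩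
  rw [Equiv.Perm.mul_apply, wd_apply h hm this.1, e1, hi]

theorem OrbIn.orb (h : ∀ l < m, ∀ i, (g l i : ℕ) = ap (T l) i) (hm : m ≤ 16)
    (hW : ∀ w ∈ W, (∀ l ∈ w, l < m) ∧ wd g w ∈ K) (L : List ℕ) {M : ℕ} (hM : OrbIn K p M) :
    OrbIn K p (orb T W L M) := by
  induction L generalizing M with
  | nil => exact hM
  | cons c L ih =>
    refine ih (M := ochunk T W c M) ?_
    rw [ochunk]
    generalize 32 = k
    induction k with
    | zero => exact hM
    | succ k ih => exact ih.ostep h hm hW _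

/-- the orbit formula with a lower bound for the orbit -/
theorem OrbIn.card {M n : ℕ} (hM : OrbIn K p M) (hn : cnt (N / 128 + 1) M = n) :
    n * Nat.card ↥(K ⊓ MulAction.stabilizer _ p) ≤ Nat.card K := by
  rw [H2.card_eq_orbit_mul K p {x | ∃ g ∈ K, g • p = x} fun _ => Iff.rfl, ← hn, ← card_mask]
  refine Nat.mul_le_mul_right _ ?_
  rw [← Set.ncard_image_of_injective _ Fin.val_injective, ← Set.ncard_coe_finset]
  refine Set.ncard_le_ncard (fun i hi => ?_) (Set.toFinite _)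
  obtain ⟨k, hk, e⟩ := hM i (Finset.mem_filter.1 hi).2
  exact ⟨k p, ⟨k, hk, rfl⟩, e⟩

theorem OrbIn.le {M n : ℕ} (hM : OrbIn K p M) (hn : cnt (N / 128 + 1) M = n) (hH : H ≤ K)
    (hp : H ≤ MulAction.stabilizer _ p) : n * Nat.card H ≤ Nat.card K :=
  (Nat.mul_le_mul_left _ (Subgroup.card_le_of_le (le_inf hH hp))).trans (hM.card hn)

theorem OrbIn.stab {M n : ℕ} (hM : OrbIn K p M) (hn : cnt (N / 128 + 1) M = n) (h0 : 0 < n)
    (hH : H ≤ K) (hp : H ≤ MulAction.stabilizer _ p) (hc : Nat.card K ≤ n * Nat.card H) :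
    K ⊓ MulAction.stabilizer _ p = H :=
  (Subgroup.eq_of_le_of_card_ge (le_inf hH hp)
    (Nat.le_of_mul_le_mul_left ((hM.card hn).trans hc) h0)).symm

/-- when the bound is attained the mask is the whole orbit -/
theorem OrbIn.full {M n : ℕ} (hM : OrbIn K p M) (hn : cnt (N / 128 + 1) M = n)
    (hH : H ≤ K) (hp : H ≤ MulAction.stabilizer _ p) (hc : Nat.card K ≤ n * Nat.card H)
    {k : Equiv.Perm (Fin N)} (hk : k ∈ K) : M.testBit (k p) = true := by
  by_contra hb
  have h1 : OrbIn K p (M ||| 2 ^ (k p : ℕ)) := fun i hi => by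
    rw [Nat.testBit_or, Bool.or_eq_true, Nat.testBit_two_pow, decide_eq_true_eq] at hi
    exact hi.elim (hM i) fun e => ⟨k, hk, e⟩
  have h2 : cnt (N / 128 + 1) (M ||| 2 ^ (k p : ℕ)) = n + 1 := by
    rw [← hn, ← card_mask, ← card_mask, ← Finset.card_insert_of_notMem (a := (k p : ℕ))
      fun c => hb (Finset.mem_filter.1 c).2]
    congr 1
    ext i
    have := (k p).2
    simp only [Finset.mem_filter, Finset.mem_range, Nat.testBit_or, Bool.or_eq_true,
      Nat.testBit_two_pow, decide_eq_true_eq, Finset.mem_insert]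
    constructor
    · rintro ⟨a, b | b⟩
      exacts [Or.inr ⟨a, b⟩, Or.inl b.symm]
    · rintro (a | ⟨a, b⟩)
      exacts [⟨by omega, Or.inr a.symm⟩, ⟨a, Or.inl b⟩]
  have h3 := (h1.le h2 hH hp).trans hc
  have h4 : 0 < Nat.card H := Nat.card_pos
  nlinarith

/-- maximality of a point stabiliser from orbit certificates -/
theorem max_of_orbits (hst : K ⊓ MulAction.stabilizer _ p = H)
    (h : ∀ k ∈ K, k p = p ∨ ∃ k₀ ∈ K, (∃ x ∈ H, x (k₀ p) = k p) ∧
      ∀ L : Subgroup (Equiv.Perm (Fin N)), H ≤ L → k₀ ∈ L → K ≤ L)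
    (L : Subgroup (Equiv.Perm (Fin N))) (h1 : H ≤ L) (h2 : L ≤ K) : L = H ∨ L = K := by
  by_cases c : L ≤ H
  · exact Or.inl (le_antisymm c h1)
  obtain ⟨k, hk, hkH⟩ := SetLike.not_le_iff_exists.1 c
  have hHK : H ≤ K := hst ▸ inf_le_left
  rcases h k (h2 hk) with e | ⟨k₀, a, ⟨x, hx, e⟩, b⟩
  · exact absurd (hst ▸ ⟨h2 hk, e⟩) hkH
  refine Or.inr (le_antisymm h2 (b L h1 ?_))
  have : k⁻¹ * x * k₀ ∈ H := by
    rw [← hst]
    refine ⟨K.mul_mem (K.mul_mem (K.inv_mem (h2 hk)) (hHK hx)) a, ?_⟩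
    show k⁻¹ (x (k₀ p)) = p
    rw [e]; simp
  have := L.mul_mem (L.inv_mem (h1 hx)) (L.mul_mem hk (h1 this))
  simpa [mul_assoc] using this

/-- a subgroup containing the stabiliser with a full orbit is everything -/
theorem OrbIn.top {L : Subgroup (Equiv.Perm (Fin N))} {M n : ℕ} (hM : OrbIn (L ⊓ K) p M)
    (hn : cnt (N / 128 + 1) M = n) (hL : H ≤ L) (hH : H ≤ K)
    (hp : H ≤ MulAction.stabilizer _ p) (hc : Nat.card K ≤ n * Nat.card H) : K ≤ L := by
  have := Subgroup.eq_of_le_of_card_ge (inf_le_right : L ⊓ K ≤ K)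
    (hc.trans (hM.le hn (le_inf hL hH) hp))
  exact this ▸ inf_le_left

theorem exists_char {A : Type*} [Group A] [Finite A] {p q : ℕ} (hp : p.Prime) (hq : q.Prime)
    (hpq : p ≠ q) (h1 : p ∣ Nat.card A) (h2 : q ∣ Nat.card A)
    (h : (∃ a b, Nat.card A = p ^ a * q ^ b) ∨ Nat.card A % 4 = 2) :
    ∃ M : Subgroup A, M.Characteristic ∧ M ≠ ⊥ ∧ M ≠ ⊤ := by
  have hnt : Nontrivial A := Finite.one_lt_card_iff_nontrivial.1
    (hp.one_lt.trans_le (Nat.le_of_dvd Nat.card_pos h1))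
  have t : _root_.commutator A ≠ ⊤ := fun c => by
    rcases h with ⟨a, b, h⟩ | h
    · have := isSolvable_of_card_eq_prime_pow_mul hp hq a b h
      exact (Group.IsSolvable.commutator_lt_top_of_nontrivial A).ne c
    · haveI : Fact (Nat.Prime 2) := ⟨Nat.prime_two⟩
      obtain ⟨P⟩ : Nonempty (Sylow 2 A) := inferInstance
      have c2 : Nat.card P = 2 := by
        obtain ⟨n, hn⟩ := P.isPGroup'.exists_card_eq
        have a1 : 2 ^ n ∣ Nat.card A := hn ▸ (P : Subgroup A).card_subgroup_dvd_card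
        have a2 : 2 ^ 1 ∣ 2 ^ n := hn ▸ P.pow_dvd_card_of_pow_dvd_card (by omega)
        rw [Nat.pow_dvd_pow_iff_le_right (by norm_num)] at a2
        have a3 : ¬ 2 ≤ n := fun c => by
          have := (Nat.pow_dvd_pow 2 c).trans a1
          omega
        rw [hn, show n = 1 by omega]; rfl
      have hm : (Nat.card A).minFac = 2 := (Nat.minFac_eq_two_iff _).2 (by omega)
      have := IsCyclic.normalizer_le_centralizer hm (P := P) (isCyclic_of_prime_card c2)
      exact not_normalizer_le_centralizer_of_perfect c (by omega) P this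
  by_cases b : _root_.commutator A = ⊥
  · haveI : Fact p.Prime := ⟨hp⟩
    obtain ⟨P⟩ : Nonempty (Sylow p A) := inferInstance
    haveI : IsMulCommutative A := ⟨⟨fun x y => by
      rw [← commutatorElement_eq_one_iff_mul_comm, ← Subgroup.mem_bot, ← b]
      exact Subgroup.commutator_mem_commutator trivial trivial⟩⟩
    have hN : (P : Subgroup A).Normal := ⟨fun x hx y => by
      rw [mul_comm' y x]; simpa using hx⟩
    refine ⟨P, Sylow.characteristic_of_normal P hN, P.ne_bot_of_dvd_card h1, fun c => ?_⟩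
    obtain ⟨n, hn⟩ := P.isPGroup'.exists_card_eq
    rw [c, Subgroup.card_top] at hn
    exact hpq ((Nat.prime_dvd_prime_iff_eq hq hp).1 (hq.dvd_of_dvd_pow (hn ▸ h2))).symm
  exact ⟨_, inferInstance, b, t⟩

/-- a group with a simple, maximal, non-normal subgroup of suitable index is simple -/
theorem simple_of_max {Γ : Type*} [Group Γ] [Finite Γ] {K H : Subgroup Γ} (hHK : H ≤ K)
    (hH : IsSimpleGroup H) (max : ∀ L, H ≤ L → L ≤ K → L = H ∨ L = K)
    (nn : ∃ k ∈ K, ∃ h ∈ H, k * h * k⁻¹ ∉ H) {n p q : ℕ} (hc : Nat.card K = n * Nat.card H)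
    (hp : p.Prime) (hq : q.Prime) (hpq : p ≠ q) (h1 : p ∣ n) (h2 : q ∣ n)
    (h : (∃ a b, n = p ^ a * q ^ b) ∨ n % 4 = 2) : IsSimpleGroup K := by
  obtain ⟨s1, s2⟩ := H2.simple_iff.1 hH
  have key : ∀ N ≤ K, (∀ n k, n ∈ N → k ∈ K → k * n * k⁻¹ ∈ N) → N ≠ ⊥ → N ≠ K →
      Nat.card N = n := fun N a b c d => by
    rcases s2 (N ⊓ H) inf_le_right (fun n k hn hk => ⟨b n k hn.1 (hHK hk),
      H.mul_mem (H.mul_mem hk hn.2) (H.inv_mem hk)⟩) with e | e
    · rcases max (H ⊔ N) le_sup_left (sup_le hHK a) with f | f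
      · exact absurd (by rw [← e, inf_eq_left.2 (f ▸ le_sup_right)]) c
      · have := H7.card_sup_mul_card_inf (A := H) (B := N) fun x hx =>
          Subgroup.mem_normalizer_fintype fun y hy => b y x hy (hHK hx)
        rw [f, inf_comm, e, Subgroup.card_bot, mul_one, hc, mul_comm] at this
        exact (Nat.eq_of_mul_eq_mul_left Nat.card_pos this).symm
    · rcases max N (e ▸ inf_le_left) a with f | f
      · obtain ⟨k, hk, x, hx, y⟩ := nn
        exact absurd (f ▸ b x k (f ▸ hx) hk) y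
      · exact absurd f d
  refine H2.simple_iff.2 ⟨fun c => s1 (le_bot_iff.1 (c ▸ hHK)), fun N a b => ?_⟩
  by_contra c
  rw [not_or] at c
  have e := key N a b c.1 c.2
  obtain ⟨M, m1, m2, m3⟩ := exists_char (A := N) hp hq hpq (e ▸ h1) (e ▸ h2) (e ▸ h)
  have f := key (M.map N.subtype) ((Subgroup.map_subtype_le M).trans a) (fun x k hx hk => by
    have hkN : k ∈ Subgroup.normalizer (N : Set Γ) :=
      Subgroup.mem_normalizer_fintype fun y hy => b y k hy hk
    obtain ⟨y, hy, rfl⟩ := hx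
    exact ⟨N.normalizerMonoidHom ⟨k, hkN⟩ y,
      Subgroup.characteristic_iff_le_comap.1 m1 _ hy, rfl⟩)
    (fun d => m2 ((Subgroup.map_eq_bot_iff_of_injective _ N.subtype_injective).1 d))
    (fun d => c.2 (le_antisymm a (d ▸ Subgroup.map_subtype_le M)))
  rw [Subgroup.card_subtype, ← e] at f
  exact m3 (Subgroup.eq_top_of_card_eq _ f)

/-- the subgroup generated by a list of words -/
def EW {Γ : Type*} [Group Γ] (g : ℕ → Γ) (W : List (List ℕ)) : Subgroup Γ :=
  Subgroup.closure {x | ∃ w ∈ W, wd g w = x}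

section
variable {Γ : Type*} [Group Γ] {f : ℕ → Γ}

theorem wd_mem_EW {w : List ℕ} (h : w ∈ W) : wd f w ∈ EW f W := Subgroup.subset_closure ⟨w, h, rfl⟩

theorem EW_le {A : Subgroup Γ} (h : ∀ w ∈ W, wd f w ∈ A) : EW f W ≤ A :=
  (Subgroup.closure_le _).2 fun _ ⟨w, hw, e⟩ => e ▸ h w hw

theorem EW_mono {W' : List (List ℕ)} (h : ∀ w ∈ W, w ∈ W') : EW f W ≤ EW f W' :=
  EW_le fun w hw => wd_mem_EW (h w hw)

theorem wd_append (u v : List ℕ) : wd f (u ++ v) = wd f u * wd f v := by simp [wd]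

theorem wd_flatten_mem {A : Subgroup Γ} {ws : List (List ℕ)} (h : ∀ w ∈ ws, wd f w ∈ A) :
    wd f ws.flatten ∈ A := by
  induction ws with
  | nil => exact A.one_mem
  | cons w ws ih =>
    rw [List.flatten_cons, wd_append]
    exact A.mul_mem (h w (List.mem_cons_self ..)) (ih fun x hx => h x (List.mem_cons_of_mem _ hx))

theorem wd_mem_of_letters {A : Subgroup Γ} {w : List ℕ} (h : ∀ l ∈ w, f (l % 16) ∈ A) :
    wd f w ∈ A := A.list_prod_mem fun x hx => by
  obtain ⟨l, hl, rfl⟩ := List.mem_map.1 hx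
  exact h l hl

end

def small (m : ℕ) (W : List (List ℕ)) : Bool := W.all fun w => w.all fun l => Nat.blt l m

theorem small_spec (h : small m W = true) : ∀ w ∈ W, ∀ l ∈ w, l < m := by
  simpa only [small, List.all_eq_true, Nat.blt_eq] using h

noncomputable def fixes (T : ℕ → ℕ) (W : List (List ℕ)) (p : ℕ) : Bool :=
  W.all fun w => Nat.beq (apW T w p) p

theorem EW_le_stab (h : ∀ l < m, ∀ i, (g l i : ℕ) = ap (T l) i) (hm : m ≤ 16)
    (h1 : small m W = true) (h2 : fixes T W p = true) : EW g W ≤ MulAction.stabilizer _ p :=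
  EW_le fun w hw => by
    simp only [fixes, List.all_eq_true, Nat.beq_eq] at h2
    exact Fin.ext ((wd_apply h hm (small_spec h1 w hw) p).trans (h2 w hw))

theorem orbIn_EW (h : ∀ l < m, ∀ i, (g l i : ℕ) = ap (T l) i) (hm : m ≤ 16)
    (h1 : small m W = true) (L : List ℕ) (hK : EW g W ≤ K) : OrbIn K p (orb T W L (2 ^ (p : ℕ))) :=
  orbIn_start.orb h hm (fun w hw => ⟨small_spec h1 w hw, hK (wd_mem_EW hw)⟩) L

/-- check of the lower bound at one level -/
noncomputable def low (N m : ℕ) (T : ℕ → ℕ) (W W' : List (List ℕ)) (p n : ℕ) (L : List ℕ) : Bool :=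
  small m W && small m W' && fixes T W p && W.all (fun w => W'.contains w) &&
    Nat.beq (cnt (N / 128 + 1) (orb T W' L (2 ^ p))) n

theorem low_spec (h : ∀ l < m, ∀ i, (g l i : ℕ) = ap (T l) i) (hm : m ≤ 16)
    {W' : List (List ℕ)} {n : ℕ} {L : List ℕ} (e : low N m T W W' p n L = true) :
    EW g W ≤ EW g W' ∧ EW g W ≤ MulAction.stabilizer _ p ∧
      n * Nat.card (EW g W) ≤ Nat.card (EW g W') ∧ (Nat.card (EW g W') ≤ n * Nat.card (EW g W) →
        EW g W' ⊓ MulAction.stabilizer _ p = EW g W ∧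
        ∀ k ∈ EW g W', (orb T W' L (2 ^ (p : ℕ))).testBit (k p) = true) := by
  simp only [low, Bool.and_eq_true, Nat.beq_eq, List.all_eq_true, List.contains_iff_mem] at e
  obtain ⟨⟨⟨⟨e1, e2⟩, e3⟩, e4⟩, e5⟩ := e
  have a := EW_mono (f := g) e4
  have b := EW_le_stab h hm e1 e3
  have c := orbIn_EW h hm e2 L (p := p) le_rfl
  refine ⟨a, b, c.le e5 a b, fun hc => ⟨c.stab e5 ?_ a b hc, fun k hk => c.full e5 a b hc hk⟩⟩
  rcases Nat.eq_zero_or_pos n with rfl | h0
  · exact absurd hc (by simpa using Nat.card_pos.ne')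
  · exact h0

/-- check of primitivity at one level -/
noncomputable def prim (N m : ℕ) (T : ℕ → ℕ) (W W' : List (List ℕ)) (p n M : ℕ)
    (S : List (List (List ℕ) × List ℕ × List ℕ)) (u v : List ℕ) : Bool :=
  small m W && small m W' && W.contains u && W'.contains v &&
    !Nat.beq (apW T u (apW T v p)) (apW T v p) &&
    S.all (fun s => s.1.all (fun w => W'.contains w) &&
      Nat.beq (cnt (N / 128 + 1) (orb T (s.1.flatten :: W) s.2.2 (2 ^ p))) n) &&
    Nat.beq M (S.foldr (fun s a => orb T W s.2.1 (2 ^ apW T s.1.flatten p) ||| a) (2 ^ p))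

theorem prim_spec (h : ∀ l < m, ∀ i, (g l i : ℕ) = ap (T l) i) (hm : m ≤ 16)
    {W' : List (List ℕ)} {n : ℕ} {L : List ℕ} (e : low N m T W W' p n L = true)
    {S : List (List (List ℕ) × List ℕ × List ℕ)} {u v : List ℕ}
    (e' : prim N m T W W' p n (orb T W' L (2 ^ (p : ℕ))) S u v = true)
    (hc : Nat.card (EW g W') ≤ n * Nat.card (EW g W)) (hH : IsSimpleGroup (EW g W))
    {r q : ℕ} (hp : r.Prime) (hq : q.Prime) (hpq : r ≠ q) (h1 : r ∣ n) (h2 : q ∣ n)
    (hn : (∃ a b, n = r ^ a * q ^ b) ∨ n % 4 = 2) : IsSimpleGroup (EW g W') := by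
  obtain ⟨a, b, c, d⟩ := low_spec h hm e
  obtain ⟨d1, d2⟩ := d hc
  simp only [prim, Bool.and_eq_true, Nat.beq_eq, List.all_eq_true, List.contains_iff_mem,
    Bool.not_eq_true', ← Bool.not_eq_true] at e'
  obtain ⟨⟨⟨⟨⟨⟨e1, e2⟩, e3⟩, e4⟩, e5⟩, e6⟩, e7⟩ := e'
  have sm : ∀ s ∈ S, ∀ l ∈ s.1.flatten, l < m := fun s hs l hl => by
    obtain ⟨w, hw, hl⟩ := List.mem_flatten.1 hl
    exact small_spec e2 w ((e6 s hs).1 w hw) l hl
  refine simple_of_max a hH (max_of_orbits d1 fun k hk => ?_) ⟨(wd g v)⁻¹,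
    (EW g W').inv_mem (wd_mem_EW e4), wd g u, wd_mem_EW e3, fun x => e5 ?_⟩
    (le_antisymm hc c) hp hq hpq h1 h2 hn
  · have f := d2 k hk
    rw [e7] at f
    have : (k p : ℕ) = p ∨ ∃ s ∈ S,
        (orb T W s.2.1 (2 ^ apW T s.1.flatten p)).testBit (k p) = true := by
      clear e6 e7 sm
      induction S with
      | nil => rw [List.foldr_nil, Nat.testBit_two_pow, decide_eq_true_eq] at f; exact Or.inl f.symm
      | cons s S ih =>
        rw [List.foldr_cons, Nat.testBit_or, Bool.or_eq_true] at f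
        rcases f with f | f
        · exact Or.inr ⟨s, List.mem_cons_self .., f⟩
        · exact (ih f).imp id fun ⟨t, t1, t2⟩ => ⟨t, List.mem_cons_of_mem _ t1, t2⟩
    rcases this with f | ⟨s, hs, f⟩
    · exact Or.inl (Fin.ext f)
    have m1 : wd g s.1.flatten ∈ EW g W' := wd_flatten_mem fun w hw => wd_mem_EW ((e6 s hs).1 w hw)
    refine Or.inr ⟨wd g s.1.flatten, m1, ?_, fun A A1 A2 => ?_⟩
    · rw [← wd_apply h hm (sm s hs)] at f
      obtain ⟨x, hx, y⟩ := orbIn_EW h hm e1 s.2.1 le_rfl _ f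
      exact ⟨x, hx, Fin.ext y⟩
    · refine OrbIn.top (orbIn_start.orb h hm (fun w hw => ?_) s.2.2) (e6 s hs).2 A1 a b hc
      rcases List.mem_cons.1 hw with rfl | hw
      · exact ⟨sm s hs, A2, m1⟩
      · exact ⟨small_spec e1 w hw, A1 (wd_mem_EW hw), a (wd_mem_EW hw)⟩
  · have y : (wd g v)⁻¹ (wd g u (wd g v p)) = p := by simpa using b x
    rw [Equiv.Perm.inv_eq_iff_eq] at y
    rw [← wd_apply h hm (small_spec e2 v e4), ← wd_apply h hm (small_spec e1 u e3), y]

end H8.PT
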