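import Cfsg.Agent.H8.PrimeSylow

/-! Sylow subgroups of symmetric and alternating groups. -/

set_option autoImplicit false

namespace H8

open Subgroup MulAction Equiv Equiv.Perm

theorem factorization_factorial_eq_one {p n : ℕ} (hp : p.Prime) (h1 : p ≤ n) (h2 : n < 2 * p) :
    n.factorial.factorization p = 1 := by
  have : Fact p.Prime := ⟨hp⟩
  rw [Nat.factorization_def _ hp]
  have h3 : n = p * 1 + (n - p) := by omega
  rw [h3, padicValNat_factorial_mul_add 1 (by omega), padicValNat_factorial_mul]
  simp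

variable {α : Type*} [Fintype α] [DecidableEq α]

theorem cycleType_of_orderOf_prime {p : ℕ} (hp : p.Prime) (h2 : Fintype.card α < 2 * p)
    {x : Perm α} (hx : orderOf x = p) : x.cycleType = {p} := by
  have hc : x.IsCycle := isCycle_of_prime_order' (hx ▸ hp) (hx ▸ h2)
  rw [hc.cycleType, ← hc.orderOf, hx]

theorem card_conj_zpowers_of_cycle {p : ℕ} [hp : Fact p.Prime] (h2 : Fintype.card α < 2 * p)
    {x : Perm α} (hx : orderOf x = p) :
    Nat.card {y : Perm α // IsConj x y ∧ y ∈ zpowers x} = p - 1 := by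
  classical
  have hQ : Nat.card (zpowers x) = p := by rw [Nat.card_zpowers, hx]
  have h3 : Nat.card {y : zpowers x // y ≠ 1} = p - 1 := by
    rw [Nat.card_eq_fintype_card, Fintype.card_subtype_compl, Fintype.card_subtype_eq,
      ← Nat.card_eq_fintype_card, hQ]
  rw [← h3]
  refine Nat.card_congr
    { toFun := fun y => ⟨⟨y.1, y.2.2⟩, ?_⟩
      invFun := fun y => ⟨y.1.1, ?_, y.1.2⟩
      left_inv := fun z => rfl
      right_inv := fun g => rfl }
  · intro h
    have h1 : y.1 = 1 := congrArg Subtype.val h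
    have h4 := y.2.1
    rw [h1, isConj_one_left] at h4
    rw [h4, orderOf_one] at hx
    exact hp.out.one_lt.ne hx
  · rw [isConj_iff_cycleType_eq, cycleType_of_orderOf_prime hp.out h2 hx,
      cycleType_of_orderOf_prime hp.out h2
        (orderOf_eq_of_mem_of_card_prime hQ y.1.2 (fun h => y.2 (Subtype.ext h)))]

/-- The normalizer of the group generated by a `p`-cycle, when the degree is `< 2 p`. -/
theorem card_normalizer_zpowers_cycle {p : ℕ} [hp : Fact p.Prime] (h2 : Fintype.card α < 2 * p)
    {x : Perm α} (hx : orderOf x = p) :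
    Nat.card (normalizer ((zpowers x : Subgroup (Perm α)) : Set (Perm α))) =
      (Fintype.card α - p).factorial * (p * (p - 1)) := by
  rw [card_normalizer_zpowers, card_conj_zpowers_of_cycle h2 hx, nat_card_centralizer,
    cycleType_of_orderOf_prime hp.out h2 hx]
  simp [mul_assoc]

theorem card_sylow_perm {p : ℕ} [hp : Fact p.Prime] (h1 : p ≤ Fintype.card α)
    (h2 : Fintype.card α < 2 * p) (P : Sylow p (Perm α)) :
    Nat.card (P : Subgroup (Perm α)) = p := by
  rw [P.card_eq_multiplicity, Nat.card_perm, Nat.card_eq_fintype_card,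
    factorization_factorial_eq_one hp.out h1 h2, pow_one]

theorem sign_eq_one_of_odd_orderOf {x : Perm α} (hx : Odd (orderOf x)) : sign x = 1 := by
  have h1 : sign x ^ orderOf x = 1 := by rw [← map_pow, pow_orderOf_eq_one, map_one]
  rcases Int.units_eq_one_or (sign x) with h | h
  · exact h
  · rw [h, hx.neg_one_pow] at h1
    exact absurd h1 (by decide)

theorem sylow_le_alternatingGroup {p : ℕ} [hp : Fact p.Prime] (hp2 : p ≠ 2)
    {P : Subgroup (Perm α)} (hP : IsPGroup p P) : P ≤ alternatingGroup α := by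
  intro x hx
  rw [mem_alternatingGroup]
  apply sign_eq_one_of_odd_orderOf
  obtain ⟨k, hk⟩ := IsPGroup.iff_orderOf.mp hP ⟨x, hx⟩
  rw [orderOf_mk] at hk
  rw [hk]
  exact (hp.out.odd_of_ne_two hp2).pow

theorem two_mul_card_normalizer_alternating (hα : 2 ≤ Fintype.card α) {p : ℕ} [hp : Fact p.Prime]
    (hp2 : p ≠ 2) (P : Sylow p (Perm α)) :
    2 * Nat.card ↥(normalizer ((P : Subgroup (Perm α)) : Set (Perm α)) ⊓ alternatingGroup α) =
      Nat.card (normalizer ((P : Subgroup (Perm α)) : Set (Perm α))) := by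
  have hle := sylow_le_alternatingGroup hp2 P.isPGroup'
  have h1 : normalizer ((P : Subgroup (Perm α)) : Set (Perm α)) ⊔ alternatingGroup α = ⊤ :=
    Sylow.normalizer_sup_eq_top' P hle
  have : Nontrivial α := Fintype.one_lt_card_iff_nontrivial.mp hα
  have h2 := relIndex_sup_right (normalizer ((P : Subgroup (Perm α)) : Set (Perm α)))
    (alternatingGroup α)
  rw [h1, relIndex_top_right, alternatingGroup.index_eq_two] at h2
  rw [h2, ← index_mul_card ((alternatingGroup α).subgroupOf
    (normalizer ((P : Subgroup (Perm α)) : Set (Perm α)))), relIndex]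
  congr 1
  rw [← inf_subgroupOf_left, Nat.card_congr (subgroupOfEquivOfLe inf_le_left).toEquiv]

end H8
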