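import Cfsg.Agent.H8.SuzT
import Cfsg.Agent.H8.SuzO

/-! The Suzuki chain `L2(7) < U3(3) < J2 < G2(4) < Suz`: orders and simplicity. -/

set_option autoImplicit false
set_option maxRecDepth 100000

namespace H8.Suz

open H8.TC H8.PT

theorem EW_nil : EW g [] = ⊥ := le_bot_iff.1 (EW_le fun w hw => absurd hw List.not_mem_nil)

theorem half {k : ℕ} {W : List (List ℕ)} (hk : 3 < k) (hk' : k ≤ 10) (h1 : small k W = true)
    (h2 : fixes TT W (1782 : Fin 1784) = true) : 2 * Nat.card (EW g W) ≤ Nat.card (GG k) := by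
  have a : OrbIn (GG k) (1782 : Fin 1784) (orb TT [[3]] [16 * 1782] (2 ^ ((1782 : Fin 1784) : ℕ))) :=
    orbIn_EW rep (by norm_num) (by decide) _ (EW_le fun w hw => by
      rw [List.mem_singleton.1 hw]; simpa [wd] using mem_GG hk)
  refine a.le (by decide +kernel) (EW_le fun w hw => wd_mem_of_letters fun l hl =>
    mem_GG (small_spec h1 w hw l hl)) (EW_le_stab rep (by norm_num) ?_ h2)
  simp only [small, List.all_eq_true, Nat.blt_eq] at h1 ⊢
  exact fun w hw l hl => (h1 w hw l hl).trans_le hk'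

theorem cards : Nat.card (EW g W0) = 1 ∧ Nat.card (EW g W1) = 2 ∧ Nat.card (EW g W2) = 6 ∧
    Nat.card (EW g W3) = 24 ∧ Nat.card (EW g W4) = 168 ∧ Nat.card (EW g W5) = 6048 ∧
    Nat.card (EW g W6) = 604800 ∧ Nat.card (EW g W7) = 251596800 ∧
    Nat.card (EW g W8) = 448345497600 := by
  have a0 : Nat.card (EW g W0) = 1 := by rw [W0, EW_nil, Subgroup.card_bot]
  have a1 := (low_spec rep (by norm_num) l1).2.2.1
  have a2 := (low_spec rep (by norm_num) l2).2.2.1
  have a3 := (low_spec rep (by norm_num) l3).2.2.1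
  have a4 := (low_spec rep (by norm_num) l4).2.2.1
  have a5 := (low_spec rep (by norm_num) l5).2.2.1
  have a6 := (low_spec rep (by norm_num) l6).2.2.1
  have a7 := (low_spec rep (by norm_num) l7).2.2.1
  have a8 := (low_spec rep (by norm_num) l8).2.2.1
  have d1 : Nat.card (EW g W1) ≤ 2 * Nat.card (EW g W0) := b1
  have d2 : Nat.card (EW g W2) ≤ 3 * Nat.card (EW g W1) := b2
  have d3 : Nat.card (EW g W3) ≤ 4 * Nat.card (EW g W2) := b3
  have d4 : Nat.card (GG 4) ≤ 14 * Nat.card (EW g W3) := b4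
  have d5 := b5
  have d6 := b6
  have d7 := b7
  have d8 := b8
  have e4 := half (k := 4) (W := W4) (by norm_num) (by norm_num) (by decide) (by decide +kernel)
  have e5 := half (k := 5) (W := W5) (by norm_num) (by norm_num) (by decide) (by decide +kernel)
  have e6 := half (k := 6) (W := W6) (by norm_num) (by norm_num) (by decide) (by decide +kernel)
  have e7 := half (k := 7) (W := W7) (by norm_num) (by norm_num) (by decide) (by decide +kernel)
  have e8 := half (k := 8) (W := W8) (by norm_num) (by norm_num) (by decide) (by decide +kernel)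
  omega

theorem faithful {x : Equiv.Perm (Fin 1784)} (hx : x ∈ EW g W4) (h1 : x 49 = 49) (h2 : x 28 = 28)
    (h3 : x 10 = 10) (h4 : x 8 = 8) : x = 1 := by
  obtain ⟨c0, c1, c2, c3, c4, -⟩ := cards
  have a4 := ((low_spec rep (by norm_num) l4).2.2.2 (by omega)).1
  have a3 := ((low_spec rep (by norm_num) l3).2.2.2 (by omega)).1
  have a2 := ((low_spec rep (by norm_num) l2).2.2.2 (by omega)).1
  have a1 := ((low_spec rep (by norm_num) l1).2.2.2 (by omega)).1
  have : x ∈ EW g W0 := a1 ▸ ⟨a2 ▸ ⟨a3 ▸ ⟨a4 ▸ ⟨hx, h1⟩, h2⟩, h3⟩, h4⟩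
  rwa [W0, EW_nil] at this

noncomputable def triv (ws : List (List ℕ)) : Bool :=
  ws.all (fun w => W4.contains w) && small 10 [ws.flatten] && fixes TT [ws.flatten] (49 : Fin 1784) &&
    fixes TT [ws.flatten] (28 : Fin 1784) && fixes TT [ws.flatten] (10 : Fin 1784) &&
    fixes TT [ws.flatten] (8 : Fin 1784)

theorem triv_spec {ws : List (List ℕ)} (h : triv ws = true) : wd g ws.flatten = 1 := by
  simp only [triv, Bool.and_eq_true, List.all_eq_true, List.contains_iff_mem] at h
  obtain ⟨⟨⟨⟨⟨a, b⟩, c1⟩, c2⟩, c3⟩, c4⟩ := h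
  have m : wd g ws.flatten ∈ EW g [ws.flatten] := wd_mem_EW (List.mem_singleton_self _)
  exact faithful (wd_flatten_mem fun w hw => wd_mem_EW (a w hw))
    (EW_le_stab rep (by norm_num) b c1 m) (EW_le_stab rep (by norm_num) b c2 m)
    (EW_le_stab rep (by norm_num) b c3 m) (EW_le_stab rep (by norm_num) b c4 m)

theorem mem_seven {A : Subgroup (Equiv.Perm (Fin 1784))} (h : ∀ x ∈ EW g W4, x ^ 7 = 1 → x ∈ A)
    (s t : List (List ℕ)) {w : List ℕ} (e : (triv (s ++ s ++ s ++ s ++ s ++ s ++ s) &&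
      triv (t ++ t ++ t ++ t ++ t ++ t ++ t) && triv (s ++ t ++ [w]) &&
      (s ++ t).all fun w => W4.contains w) = true) : wd g w ∈ A := by
  simp only [Bool.and_eq_true, List.all_eq_true, List.contains_iff_mem, List.mem_append] at e
  obtain ⟨⟨⟨e1, e2⟩, e3⟩, e4⟩ := e
  have f1 := triv_spec e1
  have f2 := triv_spec e2
  have f3 := triv_spec e3
  simp only [List.flatten_append, wd_append, List.flatten_singleton] at f1 f2 f3
  rw [eq_inv_of_mul_eq_one_right f3]
  exact A.inv_mem (A.mul_mem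
    (h _ (wd_flatten_mem fun w hw => wd_mem_EW (e4 w (Or.inl hw))) (by rw [← f1]; simp [pow_succ]))
    (h _ (wd_flatten_mem fun w hw => wd_mem_EW (e4 w (Or.inr hw))) (by rw [← f2]; simp [pow_succ])))

theorem eq_of_not_le {A : Subgroup (Equiv.Perm (Fin 1784))} (a : A ≤ EW g W4)
    (b : ∀ n k, n ∈ A → k ∈ EW g W4 → k * n * k⁻¹ ∈ A) (c : ¬ A ≤ EW g W3) : A = EW g W4 := by
  obtain ⟨-, -, -, c3, c4, -⟩ := cards
  have s := (low_spec rep (by norm_num) l4).1
  have h1 := H7.card_sup_mul_card_inf (A := EW g W3) (B := A) fun x hx =>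
    Subgroup.mem_normalizer_fintype fun y hy => b y x hy (s hx)
  have h2 : Nat.card ↥(EW g W3 ⊔ A) ∣ 24 * 7 :=
    (Subgroup.card_dvd_of_le (sup_le s a)).trans c4.dvd
  obtain ⟨m, hm⟩ : 24 ∣ Nat.card ↥(EW g W3 ⊔ A) := c3 ▸ Subgroup.card_dvd_of_le le_sup_left
  rw [hm, Nat.mul_dvd_mul_iff_left (by norm_num), Nat.dvd_prime (by norm_num)] at h2
  rcases h2 with rfl | rfl
  · exact absurd (Subgroup.eq_of_le_of_card_ge (le_sup_left : EW g W3 ≤ EW g W3 ⊔ A)
      (by omega) ▸ le_sup_right) c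
  have h7 := fun x hx hx' => H2.mem_normal_of_pow a b (p := 7) (by norm_num)
    ⟨Nat.card ↥(EW g W3 ⊓ A), by rw [hm, c3] at h1; omega⟩ (by rw [c4]; norm_num) (x := x) hx hx'
  refine le_antisymm a (EW_le fun w hw => ?_)
  simp only [W4, List.mem_cons, List.not_mem_nil, or_false] at hw
  rcases hw with rfl | rfl | rfl | rfl
  · exact mem_seven h7 [[2], [3, 2, 3], [1]] [[1], [2], [3, 2, 3]] (by decide +kernel)
  · exact mem_seven h7 [[0], [1], [2], [3, 2, 3]] [[2], [3, 2, 3], [1], [0]] (by decide +kernel)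
  · exact mem_seven h7 [[1], [3, 2, 3], [2], [1], [3, 2, 3]]
      [[3, 2, 3], [1], [2], [3, 2, 3], [1], [2]] (by decide +kernel)
  · exact mem_seven h7 [[1], [2], [3, 2, 3], [1], [2]]
      [[2], [1], [3, 2, 3], [2], [1], [3, 2, 3]] (by decide +kernel)

theorem conj_mem {x : Equiv.Perm (Fin 1784)} (hx : x ∈ EW g W4) : g 3 * x * g 3 ∈ EW g W4 := by
  have i3 : g 3 = (g 3)⁻¹ := iv_ok 3 (by norm_num)
  have : EW g W4 ≤ (EW g W4).comap (MulAut.conj (g 3)).toMonoidHom := EW_le fun w hw => by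
    have m : ∀ w ∈ W4, wd g w ∈ EW g W4 := fun w => wd_mem_EW
    show g 3 * wd g w * (g 3)⁻¹ ∈ EW g W4
    rw [← i3]
    simp only [W4, List.mem_cons, List.not_mem_nil, or_false] at hw
    rcases hw with rfl | rfl | rfl | rfl
    · have r := rel [0, 3, 0, 3] (by decide)
      have := (EW g W4).inv_mem (m [0] (by decide))
      simp only [wd, List.map_cons, List.map_nil, List.prod_cons, List.prod_nil, mul_one] at *
      rwa [mul_assoc, eq_inv_of_mul_eq_one_right r]
    · have r := rel [1, 3, 1, 3] (by decide)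
      have := (EW g W4).inv_mem (m [1] (by decide))
      simp only [wd, List.map_cons, List.map_nil, List.prod_cons, List.prod_nil, mul_one] at *
      rwa [mul_assoc, eq_inv_of_mul_eq_one_right r]
    · simpa [wd, mul_assoc] using m [3, 2, 3] (by decide)
    · have := m [2] (by decide)
      have e : g 3 * g 3 = 1 := by nth_rewrite 1 [i3]; simp
      simp only [wd, List.map_cons, List.map_nil, List.prod_cons, List.prod_nil, mul_one] at *
      rwa [← mul_assoc, ← mul_assoc, e, one_mul, mul_assoc, e, mul_one]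
  have := this hx
  rwa [Subgroup.mem_comap, MulEquiv.coe_toMonoidHom, MulAut.conj_apply, ← i3] at this

theorem simple4 : IsSimpleGroup (EW g W4) := by
  obtain ⟨-, -, -, c3, c4, -⟩ := cards
  have i3 : g 3 = (g 3)⁻¹ := iv_ok 3 (by norm_num)
  have e : g 3 * g 3 = 1 := by nth_rewrite 1 [i3]; simp
  refine H2.simple_iff.2 ⟨fun c => by rw [c, Subgroup.card_bot] at c4; omega, fun A a b => ?_⟩
  by_cases c : A ≤ EW g W3
  swap
  · exact Or.inr (eq_of_not_le a b c)
  let B := A.comap (MulAut.conj (g 3)).toMonoidHom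
  have mB : ∀ x, x ∈ B ↔ g 3 * x * g 3 ∈ A := fun x => by
    rw [Subgroup.mem_comap, MulEquiv.coe_toMonoidHom, MulAut.conj_apply, ← i3]
  have cc : ∀ x, g 3 * (g 3 * x * g 3) * g 3 = x := fun x => by
    rw [← mul_assoc, ← mul_assoc, e, one_mul, mul_assoc, e, mul_one]
  by_cases d : B ≤ EW g W3
  swap
  · have := eq_of_not_le (A := B) (fun x hx => cc x ▸ conj_mem (a ((mB x).1 hx)))
      (fun n k hn hk => (mB _).2 (by
        have := b _ _ ((mB n).1 hn) (conj_mem hk)
        convert this using 1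
        rw [mul_inv_rev, mul_inv_rev, ← i3]
        simp only [mul_assoc, ← mul_assoc (g 3) (g 3), e, one_mul])) d
    exact Or.inr (le_antisymm a fun x hx => cc x ▸ (mB _).1 (this ▸ conj_mem hx))
  have st := (low_spec rep (by norm_num) l4).2.1
  have o : OrbIn (EW g W4) (28 : Fin 1784) (orb TT W4 L4' (2 ^ ((28 : Fin 1784) : ℕ))) :=
    orbIn_EW rep (by norm_num) (by decide) _ le_rfl
  have p : g 3 49 = 28 := Fin.ext ((rep 3 (by norm_num) 49).trans (by decide +kernel))
  refine Or.inl (le_bot_iff.1 fun x hx => ?_)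
  have key : ∀ i : Fin 1784, (orb TT W4 L4' (2 ^ ((28 : Fin 1784) : ℕ))).testBit i = true →
      x i = i := fun i hi => by
    obtain ⟨k, hk, f⟩ := o i hi
    have h1 := b x k⁻¹ hx ((EW g W4).inv_mem hk)
    have h2 : (g 3 * (k⁻¹ * x * k⁻¹⁻¹) * g 3) 49 = 49 := st (d ((mB _).2 (by rwa [cc])))
    rw [inv_inv, Equiv.Perm.mul_apply, Equiv.Perm.mul_apply, p, Equiv.Perm.mul_apply,
      Equiv.Perm.mul_apply, Fin.ext f, i3, Equiv.Perm.inv_eq_iff_eq, p,
      Equiv.Perm.inv_eq_iff_eq, Fin.ext f] at h2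
    exact h2
  exact faithful (a hx) (st (c hx)) (key 28 (by decide +kernel)) (key 10 (by decide +kernel))
    (key 8 (by decide +kernel))

theorem simple5 : IsSimpleGroup (EW g W5) := by
  obtain ⟨-, -, -, -, c4, c5, -⟩ := cards
  exact prim_spec rep (by norm_num) l5 p5 (by omega) simple4 (r := 2) (q := 3) (by norm_num)
    (by norm_num) (by norm_num) (by norm_num) (by norm_num) (Or.inl ⟨2, 2, by norm_num⟩)

theorem simple6 : IsSimpleGroup (EW g W6) := by
  obtain ⟨-, -, -, -, -, c5, c6, -⟩ := cards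
  exact prim_spec rep (by norm_num) l6 p6 (by omega) simple5 (r := 2) (q := 5) (by norm_num)
    (by norm_num) (by norm_num) (by norm_num) (by norm_num) (Or.inl ⟨2, 2, by norm_num⟩)

theorem simple7 : IsSimpleGroup (EW g W7) := by
  obtain ⟨-, -, -, -, -, -, c6, c7, -⟩ := cards
  exact prim_spec rep (by norm_num) l7 p7 (by omega) simple6 (r := 2) (q := 13) (by norm_num)
    (by norm_num) (by norm_num) (by norm_num) (by norm_num) (Or.inl ⟨5, 1, by norm_num⟩)

theorem simple8 : IsSimpleGroup (EW g W8) := by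
  obtain ⟨-, -, -, -, -, -, -, c7, c8⟩ := cards
  exact prim_spec rep (by norm_num) l8 p8 (by omega) simple7 (r := 2) (q := 3) (by norm_num)
    (by norm_num) (by norm_num) (by norm_num) (by norm_num) (Or.inr (by norm_num))

theorem exists_j2 : ∃ G : Subgroup (Equiv.Perm (Fin 100)), IsSimpleGroup G ∧ Nat.card G = 604800 := by
  obtain ⟨-, -, -, -, -, c5, c6, -⟩ := cards
  haveI := simple6
  let H := (EW g W5).subgroupOf (EW g W6)
  have h1 : Nat.card H = 6048 := by
    rw [← c5]
    exact Nat.card_congr (Subgroup.subgroupOfEquivOfLe (low_spec rep (by norm_num) l6).1).toEquiv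
  have h2 : Nat.card (EW g W6 ⧸ H) = 100 := by
    have := H.card_eq_card_quotient_mul_card_subgroup
    rw [c6, h1] at this
    omega
  have h3 := toPermHom_injective (exists_smul_ne_of_ne_top H fun c => by
    rw [c, Subgroup.card_top] at h1; omega)
  let e := (Finite.equivFinOfCardEq h2).permCongrHom
  let f := MonoidHom.ofInjective (f := e.toMonoidHom.comp (MulAction.toPermHom _ _))
    (e.injective.comp h3)
  exact ⟨_, f.symm.isSimpleGroup, (Nat.card_congr f.toEquiv).symm.trans c6⟩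

end H8.Suz
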